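import Cfsg.Agent.H996.PQ.CrtVal
import Cfsg.Agent.H582.Sph.Base
import Cfsg.Agent.H317.PQ.Defs

/-!
# The spherical congruence for the states of a table (helper329, for S4612)

`card_orbit`: the number of points of a class. `sl`: if `den * k_c (f_c - 1)` is divisible by `ph` (polynomials), `p`
divides the value of `ph` and not `den`, then `χ` is in the principal `p`-block.
-/

set_option autoImplicit false
set_option linter.unusedSectionVars false

namespace Cfsg.Agent.H329.SL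

open Cfsg Cfsg.Agent.H967.Sph Cfsg.Agent.H317.PQ Cfsg.Agent.Blocks.Basic Cfsg.Agent.Blocks.Local Cfsg.Agent.H64.Dl.Sph
  Cfsg.Agent.H996.Eight Cfsg.Agent.H996.Eight.Cert Cfsg.Agent.H996.PQ
open CoxeterSystem Cfsg.Agent.ChevalleyStructure.CoxeterGeom Cfsg.Agent.Tits.Roots Cfsg.Agent.Tits.Core
  Cfsg.Agent.Nodes.Reps Cfsg.Agent.Nodes.BNOf Cfsg.Agent.Nodes.Bruhat Cfsg.Agent.Nodes.LeviDec

universe u

variable {I W : Type*} {Y : Type u} [Fintype I] [DecidableEq I] [Group W] [Finite W] [Group Y] [Finite Y]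
    {M : CoxeterMatrix I} {cs : CoxeterSystem M W} {A : I → I → ℤ} {h : IsCartan M A} {p : ℕ} {T : Subgroup Y}
    {n : I → Y} {X : (I → ℤ) → Subgroup Y} (R : RGD cs h p T n X) (hG : GG cs h T X = ⊤)
    {j : I} {N m : ℕ}

/-- elements of the same class are in the same double coset -/
theorem exists_of_cls (t : Tab A j N m) {g g' : Y} (hc : t.cls (stY R hG t g) = t.cls (stY R hG t g')) :
    ∃ y ∈ PJ cs h T X {i | i ≠ j}, ((y * g : Y) : Y ⧸ PJ cs h T X {i | i ≠ j}) = (g' : Y ⧸ PJ cs h T X {i | i ≠ j}) := by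
  classical
  obtain ⟨b, hb⟩ := exists_fun R hG t
    (fun z => if ∃ y ∈ PJ cs h T X {i | i ≠ j}, ((y * g : Y) : Y ⧸ PJ cs h T X {i | i ≠ j}) =
      (z : Y ⧸ PJ cs h T X {i | i ≠ j}) then (1 : ℚ) else 0)
    (fun y hy z => by
      have h1 : (∃ y' ∈ PJ cs h T X {i | i ≠ j}, ((y' * g : Y) : Y ⧸ PJ cs h T X {i | i ≠ j}) =
          ((y * z : Y) : Y ⧸ PJ cs h T X {i | i ≠ j})) ↔
          ∃ y' ∈ PJ cs h T X {i | i ≠ j}, ((y' * g : Y) : Y ⧸ PJ cs h T X {i | i ≠ j}) =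
            (z : Y ⧸ PJ cs h T X {i | i ≠ j}) := by
        constructor
        · rintro ⟨y', hy', h2⟩
          refine ⟨y⁻¹ * y', mul_mem (inv_mem hy) hy', ?_⟩
          rw [QuotientGroup.eq] at h2 ⊢
          have h3 : (y⁻¹ * y' * g)⁻¹ * z = (y' * g)⁻¹ * (y * z) := by group
          rw [h3]
          exact h2
        · rintro ⟨y', hy', h2⟩
          refine ⟨y * y', mul_mem hy hy', ?_⟩
          rw [QuotientGroup.eq] at h2 ⊢
          have h3 : (y * y' * g)⁻¹ * (y * z) = (y' * g)⁻¹ * z := by group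
          rw [h3]
          exact h2
      simp only [h1])
    (fun y hy z => by
      have h1 : ((z * y : Y) : Y ⧸ PJ cs h T X {i | i ≠ j}) = (z : Y ⧸ PJ cs h T X {i | i ≠ j}) :=
        QuotientGroup.eq.2 (by simpa using hy)
      simp only [h1])
  have h1 := hb g
  have h2 := hb g'
  beta_reduce at h1 h2
  rw [if_pos ⟨1, one_mem _, by rw [one_mul]⟩, hc, ← h2] at h1
  by_contra h3
  rw [if_neg h3] at h1
  exact one_ne_zero h1

variable (Da : Data A j N m) {x : ℕ} (hx : 2 ≤ x) (hq : ∀ i, Nat.card (X (sr i)) = x ^ Da.e i)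

include hx hq

/-- **the size of an orbit** -/
theorem card_orbit (g : Y) :
    (Nat.card (MulAction.orbit (MulAction.stabilizer Y ((1 : Y) : Y ⧸ PJ cs h T X {i | i ≠ j}))
      (g : Y ⧸ PJ cs h T X {i | i ≠ j})) : ℚ) = ev x (Da.kk (Da.t.cls (stY R hG Da.t g))) := by
  classical
  have := Fintype.ofFinite Y
  have := Fintype.ofFinite (Y ⧸ PJ cs h T X {i | i ≠ j})
  obtain ⟨c, hc⟩ : ∃ c, c = Da.t.cls (stY R hG Da.t g) := ⟨_, rfl⟩
  have hst : ∀ y : Y, y ∈ MulAction.stabilizer Y ((1 : Y) : Y ⧸ PJ cs h T X {i | i ≠ j}) ↔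
      y ∈ PJ cs h T X {i | i ≠ j} := by
    intro y
    rw [MulAction.mem_stabilizer_iff, MulAction.Quotient.smul_coe, smul_eq_mul, mul_one]
    constructor
    · intro h1
      have h2 := QuotientGroup.eq.1 h1
      rw [mul_one] at h2
      simpa using inv_mem h2
    · intro h1
      exact QuotientGroup.eq.2 (by simpa using inv_mem h1)
  -- the class of a point
  let f : Y ⧸ PJ cs h T X {i | i ≠ j} → Fin m := fun x => Quotient.liftOn' x (fun g => Da.t.cls (stY R hG Da.t g)) (by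
    intro g g' hgg
    have h1 : g⁻¹ * g' ∈ PJ cs h T X {i | i ≠ j} := QuotientGroup.leftRel_apply.1 hgg
    have h2 := cls_mul_right R hG Da.t h1 g
    rw [mul_inv_cancel_left] at h2
    exact h2.symm)
  have hf : ∀ g : Y, f g = Da.t.cls (stY R hG Da.t g) := fun _ => rfl
  have horb : ∀ z : Y ⧸ PJ cs h T X {i | i ≠ j},
      z ∈ MulAction.orbit (MulAction.stabilizer Y ((1 : Y) : Y ⧸ PJ cs h T X {i | i ≠ j}))
      (g : Y ⧸ PJ cs h T X {i | i ≠ j}) ↔ f z = c := by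
    intro z
    constructor
    · rintro ⟨⟨y, hy⟩, rfl⟩
      show f ((y * g : Y) : Y ⧸ PJ cs h T X {i | i ≠ j}) = c
      rw [hf, stY_mul_left R hG Da.t ((hst y).1 hy), hc]
    · intro hz
      induction z using Quotient.inductionOn' with
      | h g' =>
        obtain ⟨y, hy, h1⟩ := exists_of_cls R hG Da.t (g := g) (g' := g') (by
          rw [← hc]; exact hz.symm)
        exact ⟨⟨y, (hst y).2 hy⟩, h1⟩
  have h1 : (Nat.card (MulAction.orbit (MulAction.stabilizer Y ((1 : Y) : Y ⧸ PJ cs h T X {i | i ≠ j}))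
      (g : Y ⧸ PJ cs h T X {i | i ≠ j})) : ℚ) = ∑ z : Y ⧸ PJ cs h T X {i | i ≠ j}, if f z = c then (1 : ℚ) else 0 := by
    rw [Finset.sum_boole, Nat.card_eq_fintype_card, Fintype.card_subtype]
    congr 2
    ext z
    rw [Finset.mem_filter, Finset.mem_filter, horb]
  rw [h1, sum_quot R hG Da.t (fun i => x ^ Da.e i) hq (fun s => x ^ Da.wl s)
    (by simp only [Da.wo, pow_zero])
    (fun i s h9 => by
      show x ^ Da.wl (Da.t.st i s) = x ^ Da.e i * x ^ Da.wl s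
      rw [Da.ws i s h9, pow_add])
    (fun s => if Da.t.cls s = c then (1 : ℚ) else 0) (fun z => if f z = c then (1 : ℚ) else 0)
    (fun g => by rw [hf]), ← hc, ← ChkK.spec (x : ℚ) Da.chkK c, Finset.sum_filter]
  refine Finset.sum_congr rfl fun s _ => ?_
  split_ifs
  · push_cast
    ring
  · rw [mul_zero]

/-- **the spherical congruence** -/
theorem sl {χ : Y → ℂ} {d : ℕ} {a : Fin m → ℚ} (hv : HasVal R hG Da.t χ d a)
    {nu : Fin m → List ℤ} (ha : ∀ c, a c = ev x (nu c) / ev x (nu (Da.t.cls Da.t.o)))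
    (hpos : pPos (nu (Da.t.cls Da.t.o)) = true)
    {ph : List ℤ} {mm : Fin m → List ℤ} {den : ℕ}
    (hmm : ∀ c, pEq (pScale den (pAdd (pMul (Da.kk c) (nu c)) (pNeg (pMul (Da.kk c) (nu (Da.t.cls Da.t.o))))))
      (pMul (pMul ph (mm c)) (nu (Da.t.cls Da.t.o))) = true)
    {l : ℕ} (hl : l.Prime) (hden : ¬ l ∣ den) (hph : (l : ℤ) ∣ evZ x ph) :
    (⟨χ, hv.irr⟩ : IrrCharacter Y) ∈ B0 l Y := by
  classical
  have := Fintype.ofFinite (Y ⧸ PJ cs h T X {i | i ≠ j})
  have := Fintype.ofFinite Y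
  have hx' : (2 : ℚ) ≤ (x : ℚ) := by exact_mod_cast hx
  have hnu := ev_pos hx' hpos
  intro M' hM
  -- the spherical function
  let e₀ : Y ⧸ PJ cs h T X {i | i ≠ j} → ℚ := fun x => Quotient.liftOn' x (fun g => a (Da.t.cls (stY R hG Da.t g))) (by
    intro g g' hgg
    have h1 : g⁻¹ * g' ∈ PJ cs h T X {i | i ≠ j} := QuotientGroup.leftRel_apply.1 hgg
    have h2 := cls_mul_right R hG Da.t h1 g
    rw [mul_inv_cancel_left] at h2
    rw [h2])
  have he₀ : ∀ g : Y, e₀ g = a (Da.t.cls (stY R hG Da.t g)) := fun _ => rfl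
  have hst : ∀ y : Y, y • ((1 : Y) : Y ⧸ PJ cs h T X {i | i ≠ j}) = ((1 : Y) : Y ⧸ PJ cs h T X {i | i ≠ j}) ↔
      y ∈ PJ cs h T X {i | i ≠ j} := by
    intro y
    rw [MulAction.Quotient.smul_coe, smul_eq_mul, mul_one]
    constructor
    · intro h1
      have h2 := QuotientGroup.eq.1 h1
      rw [mul_one] at h2
      simpa using inv_mem h2
    · intro h1
      exact QuotientGroup.eq.2 (by simpa using inv_mem h1)
  have heQ : ∀ y ∈ PJ cs h T X {i | i ≠ j}, ∀ x, e₀ (y • x) = e₀ x := by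
    intro y hy x
    induction x using Quotient.inductionOn' with
    | h g =>
      show e₀ ((y * g : Y) : Y ⧸ PJ cs h T X {i | i ≠ j}) = e₀ (g : Y ⧸ PJ cs h T X {i | i ≠ j})
      rw [he₀, he₀, stY_mul_left R hG Da.t hy]
  have hγ : ∀ x : Y ⧸ PJ cs h T X {i | i ≠ j}, x.out • ((1 : Y) : Y ⧸ PJ cs h T X {i | i ≠ j}) = x := by
    intro x
    rw [MulAction.Quotient.smul_coe, smul_eq_mul, mul_one]
    exact Quotient.out_eq' x
  have ho : a (Da.t.cls Da.t.o) = 1 := by rw [ha, div_self hnu.ne']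
  have hd0 : d ≠ 0 := by
    intro h0
    have h1 := hv.one
    rw [h0, Nat.cast_zero] at h1
    exact Blocks.Basic.irr_one_ne_zero hv.irr h1
  refine H582.Sph.mem_principal_of_base_int hM (x₀ := ((1 : Y) : Y ⧸ PJ cs h T X {i | i ≠ j}))
    (γ := fun x => x.out) hγ (e := e₀) _ ⟨?_, ?_, (d : ℂ) * Nat.card (PJ cs h T X {i | i ≠ j}) / Nat.card Y, ?_, ?_⟩ ?_
  · intro q hq' x
    beta_reduce
    rw [heQ q ((hst q).1 hq')]
  · beta_reduce
    rw [he₀, (stY_eq_o_iff R hG Da.t).2 (one_mem _), ho, Rat.cast_one]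
  · have h1 : (Nat.card Y : ℂ) ≠ 0 := Nat.cast_ne_zero.2 Nat.card_pos.ne'
    have h2 : (Nat.card (PJ cs h T X {i | i ≠ j}) : ℂ) ≠ 0 := Nat.cast_ne_zero.2 Nat.card_pos.ne'
    have h3 : (d : ℂ) ≠ 0 := Nat.cast_ne_zero.2 hd0
    exact div_ne_zero (mul_ne_zero h3 h2) h1
  · intro g
    have h0 : (Nat.card Y : ℂ) ≠ 0 := Nat.cast_ne_zero.2 Nat.card_pos.ne'
    have h1 := hv.val g
    rw [finsum_eq_sum_of_fintype] at h1
    have h2 := sum_gamma (cs := cs) (h := h) (T := T) (X := X) (j := j) e₀ heQ _ hγ g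
    have h3 : ∀ y : Y, a (Da.t.cls (stY R hG Da.t (y⁻¹ * g * y))) =
        e₀ ((y⁻¹ * g * y : Y) : Y ⧸ PJ cs h T X {i | i ≠ j}) := fun y => rfl
    rw [Finset.sum_congr rfl fun y _ => h3 y, h2] at h1
    show χ g = _
    rw [div_mul_eq_mul_div, eq_div_iff h0, mul_comm (χ g), h1]
    push_cast
    ring
  · intro y
    induction y using Quotient.inductionOn' with
    | h g =>
      have h1 := card_orbit R hG Da hx hq g
      obtain ⟨c, hc⟩ : ∃ c, c = Da.t.cls (stY R hG Da.t g) := ⟨_, rfl⟩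
      have h2 := ev_of_pEq (x : ℚ) (hmm c)
      rw [ev_pScale, ev_pAdd, ev_pNeg, ev_pMul, ev_pMul, ev_pMul, ev_pMul] at h2
      obtain ⟨z, hz⟩ := hph
      refine ⟨z * evZ x (mm c), den, fun h3 => hden (Int.natCast_dvd_natCast.1 h3), ?_⟩
      show ((den : ℤ) : ℚ) * ((Nat.card (MulAction.orbit (MulAction.stabilizer Y ((1 : Y) : Y ⧸ PJ cs h T X {i | i ≠ j}))
        (g : Y ⧸ PJ cs h T X {i | i ≠ j})) : ℚ) * (e₀ (g : Y ⧸ PJ cs h T X {i | i ≠ j}) - 1)) = _
      rw [h1, he₀, ← hc, ha]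
      have h4 := evZ_cast (x : ℤ) ph
      have h5 := evZ_cast (x : ℤ) (mm c)
      have h6 := congrArg (fun z : ℤ => (z : ℚ)) hz
      push_cast at h4 h5 h6 h2 ⊢
      rw [h4] at h6
      rw [h6, ← h5] at h2
      rw [div_sub_one hnu.ne', ← mul_div_assoc, ← mul_div_assoc, div_eq_iff hnu.ne']
      linear_combination h2

end Cfsg.Agent.H329.SL
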